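import Cfsg.Agent.H335.Sr.Chev

/-!
# The rank one parts (helper335)

`Z : ZD hp cs w γ ε z`; `nc hp K j = sl hp j (ww 1)`.

* `ZD.sl_uu`, `ZD.sl_vv`, `ZD.nc` : the action of `z` on the rank one groups;
* `ZD.one` : `γ j = j`, `ε j = 1` : `z n_j` has square one and inverts `x_{±α_j}(a)`;
* `ZD.pair` : `z n_j n_{γ j}^{ε j}` has square one and inverts `x_{α_j}(a) x_{α_{γ j}}(ε a)` and
  `x_{-α_j}(a) x_{-α_{γ j}}(ε a)`;
* `ZD.pair_mix` : `z` inverts `x_{α_j}(a) x_{-α_{γ j}}(-ε a)` and `x_{-α_j}(a) x_{α_{γ j}}(-ε a)`.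
-/

set_option autoImplicit false
set_option linter.unusedSectionVars false

namespace Cfsg.Agent.H335.Sr

open CoxeterSystem Cfsg Cfsg.Lie Cfsg.Lie.ChevalleyDatum
open Cfsg.Agent.ChevalleyStructure Cfsg.Agent.ChevalleyStructure.Elts Cfsg.Agent.ChevalleyStructure.CoxeterGeom
  Cfsg.Agent.ChevalleyStructure.CoxeterGeomTypes Cfsg.Agent.ChevalleyStructure.NPerm
open Cfsg.Agent.Tits.Roots Cfsg.Agent.Tits.Core Cfsg.Agent.Nodes Cfsg.Agent.Nodes.Reps Cfsg.Agent.Nodes.BNOf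
  Cfsg.Agent.Nodes.RGDChev Cfsg.Agent.Nodes.Bruhat
open Cfsg.Agent.KFacts.RgdField Cfsg.Agent.KFacts.RgdChevCoord Cfsg.Agent.BpExc.TorCent Cfsg.Agent.BpExc.TorChev
open Cfsg.Agent.H129.TorusChar Cfsg.Agent.OddHalf.NI.ModelChev
open Cfsg.Agent.FixBN.FieldRGD (uu vv dd ww)
open scoped MatrixGroups

universe u

variable {D : ChevalleyDatum} {l : ℕ} {M : CoxeterMatrix (Fin l)} {hp : IsType D l M} {K : Type u} [Field K]
  {W : Type*} [Group W] {cs : CoxeterSystem M W}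

/-! ### `SL(2, K)` -/

theorem ww_eq (c : K) (hc : c ≠ 0) : ww c hc = uu c * vv (-c⁻¹) * uu c := by
  apply Subtype.ext
  change !![0, c; -c⁻¹, 0] = !![1, c; 0, 1] * !![1, 0; -c⁻¹, 1] * !![1, c; 0, 1]
  ext i j
  fin_cases i <;> fin_cases j <;> simp [hc]

theorem vv_uu_vv (x : K) (hx : x ≠ 0) : vv x * uu (-x⁻¹) * vv x = ww (-x⁻¹) (neg_ne_zero.2 (inv_ne_zero hx)) := by
  apply Subtype.ext
  change !![1, 0; x, 1] * !![1, -x⁻¹; 0, 1] * !![1, 0; x, 1] = !![0, -x⁻¹; -(-x⁻¹)⁻¹, 0]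
  ext i j
  fin_cases i <;> fin_cases j <;> simp [hx]

theorem ww_inv (c : K) (hc : c ≠ 0) : (ww c hc)⁻¹ = ww (-c) (neg_ne_zero.2 hc) := by
  apply inv_eq_of_mul_eq_one_right
  apply Subtype.ext
  change !![0, c; -c⁻¹, 0] * !![0, -c; -(-c)⁻¹, 0] = 1
  ext i j
  fin_cases i <;> fin_cases j <;> simp [hc]

theorem ww_uu (c : K) (hc : c ≠ 0) (a : K) : ww c hc * uu a * (ww c hc)⁻¹ = vv (-(c⁻¹ * c⁻¹ * a)) := by
  rw [ww_inv]
  apply Subtype.ext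
  change !![0, c; -c⁻¹, 0] * !![1, a; 0, 1] * !![0, -c; -(-c)⁻¹, 0] = !![1, 0; -(c⁻¹ * c⁻¹ * a), 1]
  ext i j
  fin_cases i <;> fin_cases j <;> simp [hc]
  ring

theorem ww_vv (c : K) (hc : c ≠ 0) (a : K) : ww c hc * vv a * (ww c hc)⁻¹ = uu (-(c * c * a)) := by
  rw [ww_inv]
  apply Subtype.ext
  change !![0, c; -c⁻¹, 0] * !![1, 0; a, 1] * !![0, -c; -(-c)⁻¹, 0] = !![1, -(c * c * a); 0, 1]
  ext i j
  fin_cases i <;> fin_cases j <;> simp [hc]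
  ring

theorem uu_inv (a : K) : (uu a)⁻¹ = uu (-a) := by
  apply inv_eq_of_mul_eq_one_right
  apply Subtype.ext
  change !![1, a; 0, 1] * !![1, -a; 0, 1] = 1
  ext i j
  fin_cases i <;> fin_cases j <;> simp

theorem vv_inv (a : K) : (vv a)⁻¹ = vv (-a) := by
  apply inv_eq_of_mul_eq_one_right
  apply Subtype.ext
  change !![1, 0; a, 1] * !![1, 0; -a, 1] = 1
  ext i j
  fin_cases i <;> fin_cases j <;> simp

namespace ZD

variable {w : W} {γ : Fin l → Fin l} {ε : Fin l → ℤ} {z : ↥(D.group K)} (Z : ZD hp cs w γ ε z)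

include Z

theorem eps (i : Fin l) : (ε i : K) * (ε i : K) = 1 := by
  rcases Z.sgn i with h | h <;> rw [h] <;> simp

theorem eps_ne (i : Fin l) : (ε i : K) ≠ 0 := left_ne_zero_of_mul_eq_one (Z.eps i)

theorem sl_uu (i : Fin l) (a : K) : z * sl hp i (uu a) * z⁻¹ = sl hp (γ i) (vv ((ε i : K) * a)) := by
  rw [Cfsg.Agent.OddHalf.NI.ModelChev.sl_uu, Cfsg.Agent.OddHalf.NI.ModelChev.sl_vv, Z.pos]

theorem sl_vv (i : Fin l) (a : K) : z * sl hp i (vv a) * z⁻¹ = sl hp (γ i) (uu ((ε i : K) * a)) := by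
  rw [Cfsg.Agent.OddHalf.NI.ModelChev.sl_uu, Cfsg.Agent.OddHalf.NI.ModelChev.sl_vv, Z.neg]

theorem sl_ww (i : Fin l) (c : K) (hc : c ≠ 0) (hc' : (ε i : K) * c⁻¹ ≠ 0) :
    z * sl hp i (ww c hc) * z⁻¹ = (sl hp (γ i) (ww ((ε i : K) * c⁻¹) hc'))⁻¹ := by
  have hx : (ε i : K) * c ≠ 0 := mul_ne_zero (Z.eps_ne i) hc
  have e0 : ((ε i : K))⁻¹ = (ε i : K) := inv_eq_of_mul_eq_one_left (Z.eps i)
  have e1 : z * sl hp i (ww c hc) * z⁻¹ =
      (z * sl hp i (uu c) * z⁻¹) * (z * sl hp i (vv (-c⁻¹)) * z⁻¹) * (z * sl hp i (uu c) * z⁻¹) := by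
    rw [ww_eq, map_mul, map_mul]; group
  have e2 : (ε i : K) * -c⁻¹ = -((ε i : K) * c)⁻¹ := by rw [mul_inv, e0]; ring
  rw [e1, Z.sl_uu, Z.sl_vv, e2, ← map_mul, ← map_mul, vv_uu_vv _ hx, ← map_inv, ww_inv]
  congr 1
  apply Subtype.ext
  have e3 : -((ε i : K) * c)⁻¹ = -((ε i : K) * c⁻¹) := by rw [mul_inv, e0]
  change !![0, -((ε i : K) * c)⁻¹; -(-((ε i : K) * c)⁻¹)⁻¹, 0] =
    !![0, -((ε i : K) * c⁻¹); -(-((ε i : K) * c⁻¹))⁻¹, 0]
  rw [e3]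

/-- one node with `ε j = 1` -/
theorem one {j : Fin l} (hγ : γ j = j) (hε : ε j = 1) :
    (z * sl hp j (ww 1 one_ne_zero)) * (z * sl hp j (ww 1 one_ne_zero)) = 1 ∧
    (∀ a : K, (z * sl hp j (ww 1 one_ne_zero)) * sl hp j (uu a) * (z * sl hp j (ww 1 one_ne_zero))⁻¹ =
      (sl hp j (uu a))⁻¹) ∧
    (∀ a : K, (z * sl hp j (ww 1 one_ne_zero)) * sl hp j (vv a) * (z * sl hp j (ww 1 one_ne_zero))⁻¹ =
      (sl hp j (vv a))⁻¹) := by
  have hzi : z⁻¹ = z := inv_eq_of_mul_eq_one_left Z.sq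
  set m := sl hp j (ww (1 : K) one_ne_zero) with hm
  have e1 : z * m * z⁻¹ = m⁻¹ := by
    rw [hm, Z.sl_ww j 1 one_ne_zero (by rw [hε]; simp)]
    congr 1
    rw [hγ]
    congr 1
    apply Subtype.ext
    change !![0, (ε j : K) * 1⁻¹; -((ε j : K) * 1⁻¹)⁻¹, 0] = !![0, 1; -1⁻¹, 0]
    rw [hε]
    simp
  refine ⟨?_, fun a => ?_, fun a => ?_⟩
  · calc z * m * (z * m) = (z * m * z⁻¹) * (z * z) * m := by group
      _ = 1 := by rw [e1, Z.sq]; group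
  · calc z * m * sl hp j (uu a) * (z * m)⁻¹ = z * (m * sl hp j (uu a) * m⁻¹) * z⁻¹ := by group
      _ = (sl hp j (uu a))⁻¹ := by
        rw [hm, ← map_mul, ← map_inv, ← map_mul, ww_uu, Z.sl_vv, hγ, hε, ← map_inv, uu_inv]
        simp
  · calc z * m * sl hp j (vv a) * (z * m)⁻¹ = z * (m * sl hp j (vv a) * m⁻¹) * z⁻¹ := by group
      _ = (sl hp j (vv a))⁻¹ := by
        rw [hm, ← map_mul, ← map_inv, ← map_mul, ww_vv, Z.sl_uu, hγ, hε, ← map_inv, vv_inv]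
        simp

/-- the element `n_j n_{γ j}^{ε}` -/
theorem pair {j : Fin l} (hγ : γ (γ j) = j) (hεγ : ε (γ j) = ε j)
    (hcomm : ∀ A B : SL(2, K), Commute (sl hp j A) (sl hp (γ j) B)) :
    ∃ A B : SL(2, K), (z * (sl hp j A * sl hp (γ j) B)) * (z * (sl hp j A * sl hp (γ j) B)) = 1 ∧
    (∀ a : K, (z * (sl hp j A * sl hp (γ j) B)) * (sl hp j (uu a) * sl hp (γ j) (uu ((ε j : K) * a))) *
      (z * (sl hp j A * sl hp (γ j) B))⁻¹ = (sl hp j (uu a) * sl hp (γ j) (uu ((ε j : K) * a)))⁻¹) ∧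
    (∀ a : K, (z * (sl hp j A * sl hp (γ j) B)) * (sl hp j (vv a) * sl hp (γ j) (vv ((ε j : K) * a))) *
      (z * (sl hp j A * sl hp (γ j) B))⁻¹ = (sl hp j (vv a) * sl hp (γ j) (vv ((ε j : K) * a)))⁻¹) := by
  have he := Z.eps (K := K) j
  have he0 := Z.eps_ne (K := K) j
  have hei : ((ε j : K))⁻¹ = (ε j : K) := inv_eq_of_mul_eq_one_left he
  set m1 := sl hp j (ww (1 : K) one_ne_zero) with hm1
  set m2 := sl hp (γ j) (ww (ε j : K) he0) with hm2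
  have c12 : m1 * m2 = m2 * m1 := hcomm _ _
  have e1 : z * m1 * z⁻¹ = m2⁻¹ := by
    rw [hm1, Z.sl_ww j 1 one_ne_zero (by rw [inv_one, mul_one]; exact he0)]
    congr 2
    apply Subtype.ext
    change !![0, (ε j : K) * 1⁻¹; -((ε j : K) * 1⁻¹)⁻¹, 0] = !![0, (ε j : K); -(ε j : K)⁻¹, 0]
    rw [inv_one, mul_one]
  have e2 : z * m2 * z⁻¹ = m1⁻¹ := by
    rw [hm2, Z.sl_ww (γ j) (ε j : K) he0 (by rw [hεγ, hei, he]; exact one_ne_zero), hγ]
    congr 2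
    apply Subtype.ext
    change !![0, (ε (γ j) : K) * (ε j : K)⁻¹; -((ε (γ j) : K) * (ε j : K)⁻¹)⁻¹, 0] = !![0, 1; -1⁻¹, 0]
    rw [hεγ, hei, he]
  refine ⟨ww 1 one_ne_zero, ww (ε j : K) he0, ?_, fun a => ?_, fun a => ?_⟩
  · calc z * (m1 * m2) * (z * (m1 * m2)) = (z * m1 * z⁻¹) * (z * m2 * z⁻¹) * (z * z) * (m1 * m2) := by group
      _ = m2⁻¹ * m1⁻¹ * (m1 * m2) := by rw [e1, e2, Z.sq, mul_one]
      _ = 1 := by group
  · have h1 : m1 * sl hp j (uu a) * m1⁻¹ = sl hp j (vv (-a)) := by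
      rw [hm1, ← map_mul, ← map_inv, ← map_mul, ww_uu]
      simp
    have h2 : m2 * sl hp (γ j) (uu ((ε j : K) * a)) * m2⁻¹ = sl hp (γ j) (vv (-((ε j : K) * a))) := by
      rw [hm2, ← map_mul, ← map_inv, ← map_mul, ww_uu, hei, he, one_mul]
    have h3 : m2 * sl hp j (uu a) * m2⁻¹ = sl hp j (uu a) := by
      have h := (hcomm (uu a) (ww (ε j : K) he0)).eq
      rw [← hm2] at h
      rw [← h]; group
    have h4 : m1 * sl hp (γ j) (vv (-((ε j : K) * a))) * m1⁻¹ = sl hp (γ j) (vv (-((ε j : K) * a))) := by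
      have h := (hcomm (ww (1 : K) one_ne_zero) (vv (-((ε j : K) * a)))).eq
      rw [← hm1] at h
      rw [h]; group
    calc z * (m1 * m2) * (sl hp j (uu a) * sl hp (γ j) (uu ((ε j : K) * a))) * (z * (m1 * m2))⁻¹
        = z * (m1 * (m2 * sl hp j (uu a) * m2⁻¹) * m1⁻¹ *
            (m1 * (m2 * sl hp (γ j) (uu ((ε j : K) * a)) * m2⁻¹) * m1⁻¹)) * z⁻¹ := by group
      _ = (z * sl hp j (vv (-a)) * z⁻¹) * (z * sl hp (γ j) (vv (-((ε j : K) * a))) * z⁻¹) := by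
          rw [h2, h3, h1, h4]; group
      _ = (sl hp (γ j) (uu ((ε j : K) * a)))⁻¹ * (sl hp j (uu a))⁻¹ := by
          rw [Z.sl_vv, Z.sl_vv, hγ, hεγ, ← map_inv, ← map_inv, uu_inv, uu_inv]
          congr 3
          · ring
          · calc (ε j : K) * -((ε j : K) * a) = -(((ε j : K) * (ε j : K)) * a) := by ring
              _ = -a := by rw [he, one_mul]
      _ = _ := by group
  · have h1 : m1 * sl hp j (vv a) * m1⁻¹ = sl hp j (uu (-a)) := by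
      rw [hm1, ← map_mul, ← map_inv, ← map_mul, ww_vv]
      simp
    have h2 : m2 * sl hp (γ j) (vv ((ε j : K) * a)) * m2⁻¹ = sl hp (γ j) (uu (-((ε j : K) * a))) := by
      rw [hm2, ← map_mul, ← map_inv, ← map_mul, ww_vv, he, one_mul]
    have h3 : m2 * sl hp j (vv a) * m2⁻¹ = sl hp j (vv a) := by
      have h := (hcomm (vv a) (ww (ε j : K) he0)).eq
      rw [← hm2] at h
      rw [← h]; group
    have h4 : m1 * sl hp (γ j) (uu (-((ε j : K) * a))) * m1⁻¹ = sl hp (γ j) (uu (-((ε j : K) * a))) := by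
      have h := (hcomm (ww (1 : K) one_ne_zero) (uu (-((ε j : K) * a)))).eq
      rw [← hm1] at h
      rw [h]; group
    calc z * (m1 * m2) * (sl hp j (vv a) * sl hp (γ j) (vv ((ε j : K) * a))) * (z * (m1 * m2))⁻¹
        = z * (m1 * (m2 * sl hp j (vv a) * m2⁻¹) * m1⁻¹ *
            (m1 * (m2 * sl hp (γ j) (vv ((ε j : K) * a)) * m2⁻¹) * m1⁻¹)) * z⁻¹ := by group
      _ = (z * sl hp j (uu (-a)) * z⁻¹) * (z * sl hp (γ j) (uu (-((ε j : K) * a))) * z⁻¹) := by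
          rw [h2, h3, h1, h4]; group
      _ = (sl hp (γ j) (vv ((ε j : K) * a)))⁻¹ * (sl hp j (vv a))⁻¹ := by
          rw [Z.sl_uu, Z.sl_uu, hγ, hεγ, ← map_inv, ← map_inv, vv_inv, vv_inv]
          congr 3
          · ring
          · calc (ε j : K) * -((ε j : K) * a) = -(((ε j : K) * (ε j : K)) * a) := by ring
              _ = -a := by rw [he, one_mul]
      _ = _ := by group

/-- mixed pairs are inverted by `z` -/
theorem pair_mix {j : Fin l} (hγ : γ (γ j) = j) (hεγ : ε (γ j) = ε j)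
    (a : K) : z * (sl hp j (uu a) * sl hp (γ j) (vv (-((ε j : K) * a)))) * z⁻¹ =
      (sl hp j (uu a) * sl hp (γ j) (vv (-((ε j : K) * a))))⁻¹ := by
  have he := Z.eps (K := K) j
  calc z * (sl hp j (uu a) * sl hp (γ j) (vv (-((ε j : K) * a)))) * z⁻¹
      = (z * sl hp j (uu a) * z⁻¹) * (z * sl hp (γ j) (vv (-((ε j : K) * a))) * z⁻¹) := by group
    _ = (sl hp (γ j) (vv (-((ε j : K) * a))))⁻¹ * (sl hp j (uu a))⁻¹ := by
      rw [Z.sl_uu, Z.sl_vv, hγ, hεγ, ← map_inv, ← map_inv, uu_inv, vv_inv, neg_neg]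
      congr 3
      calc (ε j : K) * -((ε j : K) * a) = -(((ε j : K) * (ε j : K)) * a) := by ring
        _ = -a := by rw [he, one_mul]
    _ = _ := by group

end ZD

end Cfsg.Agent.H335.Sr
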