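import Cfsg.Agent.H335.Sr.SyCls
import Cfsg.Agent.H335.Sr.RankOne
import Cfsg.Agent.H335.Sr.Inst
import Cfsg.Agent.H85.Ore.Phi

/-!
# Reality of `s₀ φ(X)` (helper335)

* `real_neg` : `w = -1`;
* `real8`, `real7` : the blocks `A_7` of `E_8` and `A_6` of `E_7` of helper85.
-/

set_option autoImplicit false
set_option linter.unusedSectionVars false

namespace Cfsg.Agent.H335.Sr

open CoxeterSystem Cfsg Cfsg.Lie Cfsg.Lie.ChevalleyDatum
open Cfsg.Agent.ChevalleyStructure Cfsg.Agent.ChevalleyStructure.Elts Cfsg.Agent.ChevalleyStructure.CoxeterGeom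
  Cfsg.Agent.ChevalleyStructure.CoxeterGeomTypes Cfsg.Agent.ChevalleyStructure.NPerm
open Cfsg.Agent.Tits.Roots Cfsg.Agent.Tits.Core Cfsg.Agent.Nodes Cfsg.Agent.Nodes.Reps Cfsg.Agent.Nodes.BNOf
  Cfsg.Agent.Nodes.RGDChev Cfsg.Agent.Nodes.Bruhat
open Cfsg.Agent.KFacts.RgdField Cfsg.Agent.KFacts.RgdChevCoord Cfsg.Agent.BpExc.TorCent Cfsg.Agent.BpExc.TorChev
open Cfsg.Agent.H129.TorusChar Cfsg.Agent.H130.WeylCk Cfsg.Agent.H130.WeylTab Cfsg.Agent.H85.Ore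

universe u

theorem real_neg {D : ChevalleyDatum} {l : ℕ} {M : CoxeterMatrix (Fin l)} {hp : IsType D l M} {K : Type u} [Field K]
    {W : Type*} [Group W] {cs : CoxeterSystem M W} {w : W} {ε : Fin l → ℤ} {z : ↥(D.group K)}
    (hw : ∀ x, rep cs hp.isCartan w x = -x) (Z : ZD hp cs w id ε z)
    {n : ℕ} {r : Fin (n + 2) → Fin (n + 2) → ℕ} {s : Fin (n + 2) → Fin (n + 2) → K}
    {φ : Matrix.SpecialLinearGroup (Fin (n + 2)) K →* ↥(D.group K)} (hr : ∀ a b, a ≠ b → r a b < D.nroots)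
    (hneg : ∀ a b, a ≠ b → r b a = D.neg (r a b)) (hs : ∀ a b, a ≠ b → s a b * s a b = 1)
    (hφ : ∀ a b (hab : a ≠ b) c, φ (Matrix.SpecialLinearGroup.transvection hab c) =
      xc hp (vec D l (r a b)) (s a b * c)) {s₀ : ↥(D.group K)} (hs₀ : s₀ ∈ TT D K)
    (hcomm : ∀ A, s₀ * φ A = φ A * s₀) {X : Matrix.SpecialLinearGroup (Fin (n + 2)) K} (hX : Sy X.1) :
    ∃ t : ↥(D.group K), t * t = 1 ∧ t * (s₀ * φ X) * t⁻¹ = (s₀ * φ X)⁻¹ := by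
  obtain ⟨S, h1, h2⟩ := Z.inv_block hr hneg (fun a b _ => hw _) hs hφ (fun _ => rfl) hs₀ (fun _ => rfl) hcomm hX
  exact ⟨_, h1, h2⟩

theorem real_neg' {D : ChevalleyDatum} {l : ℕ} {M : CoxeterMatrix (Fin l)} {hp : IsType D l M} {K : Type u} [Field K]
    {W : Type*} [Group W] {cs : CoxeterSystem M W} {w : W} {ε : Fin l → ℤ} {z : ↥(D.group K)}
    (hw : ∀ x, rep cs hp.isCartan w x = -x) (Z : ZD hp cs w id ε z)
    {n : ℕ} {r : Fin (n + 2) → Fin (n + 2) → ℕ} {s : Fin (n + 2) → Fin (n + 2) → K}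
    {φ : Matrix.SpecialLinearGroup (Fin (n + 2)) K →* ↥(D.group K)} (hr : ∀ a b, a ≠ b → r a b < D.nroots)
    (hneg : ∀ a b, a ≠ b → r b a = D.neg (r a b)) (hs : ∀ a b, a ≠ b → s a b * s a b = 1)
    (hφ : ∀ a b (hab : a ≠ b) c, φ (Matrix.SpecialLinearGroup.transvection hab c) =
      xc hp (vec D l (r a b)) (s a b * c)) {X : Matrix.SpecialLinearGroup (Fin (n + 2)) K} (hX : Sy X.1) :
    ∃ t : ↥(D.group K), t * t = 1 ∧ t * φ X * t⁻¹ = (φ X)⁻¹ := by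
  have h := real_neg hw Z hr hneg hs hφ (one_mem (TT D K)) (fun A => by rw [one_mul, mul_one]) hX
  simpa only [one_mul] using h

section

variable {K : Type u} [Field K] [Finite K]

theorem real8 {φ : Matrix.SpecialLinearGroup (Fin 8) K →* ↥(chevE8.group K)}
    (hφ : ∀ a b (hab : a ≠ b) c, φ (Matrix.SpecialLinearGroup.transvection hab c) =
      xc Cfsg.Agent.Nodes.KindE.isType8 (vec chevE8 8 (r8 a b)) (((-1 : ℤ) : K) * c))
    {X : Matrix.SpecialLinearGroup (Fin 8) K} (hX : Sy X.1) :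
    ∃ t : ↥(chevE8.group K), t * t = 1 ∧ t * φ X * t⁻¹ = (φ X)⁻¹ := by
  obtain ⟨w, ε, z, hw, Z⟩ := zE8 K Cfsg.Agent.Nodes.KindE.isType8 CoxeterMatrix.E₈.toCoxeterSystem
  exact real_neg' hw Z (s := fun _ _ => ((-1 : ℤ) : K)) ch8a.1 rt8.2.2.2 (fun _ _ _ => by simp) hφ hX

theorem real7 {φ : Matrix.SpecialLinearGroup (Fin 7) K →* ↥(chevE7.group K)}
    (hφ : ∀ a b (hab : a ≠ b) c, φ (Matrix.SpecialLinearGroup.transvection hab c) =
      xc Cfsg.Agent.Nodes.KindE.isType7 (vec chevE7 7 (r7 a b)) (((-1 : ℤ) : K) * c))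
    {X : Matrix.SpecialLinearGroup (Fin 7) K} (hX : Sy X.1) :
    ∃ t : ↥(chevE7.group K), t * t = 1 ∧ t * φ X * t⁻¹ = (φ X)⁻¹ := by
  obtain ⟨w, ε, z, hw, Z⟩ := zE7 K Cfsg.Agent.Nodes.KindE.isType7 CoxeterMatrix.E₇.toCoxeterSystem
  exact real_neg' hw Z (s := fun _ _ => ((-1 : ℤ) : K)) ch7a.1 rt7.2.2.2 (fun _ _ _ => by simp) hφ hX

end

end Cfsg.Agent.H335.Sr
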